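import Mathlib
import Cfsg.Agent.Classical.Linear.Transitivity

/-!
A cocycle `SL_m → F^m` avoiding transvections does not exist (except for `m = 3` over two elements).
-/

set_option autoImplicit false

open Matrix

namespace CfsgLib.MinIndex

variable {F : Type*} [Field F] {m : ℕ}


/-- An elementary transvection. -/
abbrev tr {i j : Fin m} (hij : i ≠ j) (t : F) : Matrix.SpecialLinearGroup (Fin m) F := Matrix.SpecialLinearGroup.transvection hij t

theorem vecMul_transvection {i j : Fin m} (hij : i ≠ j) (t : F) (v : Fin m → F) (l : Fin m) :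
    (v ᵥ* ((tr hij t : Matrix.SpecialLinearGroup (Fin m) F) : Matrix (Fin m) (Fin m) F)) l = v l + (if l = j then t * v i else 0) := by
  rw [← CfsgLib.Classical.Linear.one_add_vecMulVec_single hij t, Matrix.vecMul_add, Matrix.vecMul_one,
    Matrix.vecMul_vecMulVec, Pi.add_apply, Pi.smul_apply, dotProduct_single, mul_one, smul_eq_mul]
  rw [Pi.single_apply]
  split_ifs <;> ring

variable (f : Matrix.SpecialLinearGroup (Fin m) F → (Fin m → F)) (hmul : ∀ A B : Matrix.SpecialLinearGroup (Fin m) F, f (A * B) = f B + f A ᵥ* (B : Matrix (Fin m) (Fin m) F))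
  (hnt : ∀ (D : Matrix.SpecialLinearGroup (Fin m) F) (a b : Fin m → F), a ≠ 0 → b ≠ 0 → (D : Matrix (Fin m) (Fin m) F) = 1 + vecMulVec a b →
    ∀ c : F, f D ≠ c • b)

include hnt in
theorem exists_off_axis {i j : Fin m} (hij : i ≠ j) : ∃ l, l ≠ j ∧ f (tr hij (1 : F)) l ≠ 0 := by
  by_contra h
  push Not at h
  refine hnt (tr hij (1 : F)) (Pi.single i 1) (Pi.single j 1) (by simp [Pi.single_eq_zero_iff])
    (by simp [Pi.single_eq_zero_iff]) (CfsgLib.Classical.Linear.one_add_vecMulVec_single hij (1 : F)).symm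
    (f (tr hij (1 : F)) j) (funext fun l => ?_)
  by_cases hl : l = j
  · subst hl; simp
  · simp [hl, h l hl]

include hmul in
/-- The coordinates of the value at the commutator of two elementary transvections. -/
theorem commutator_value {i k j : Fin m} (hik : i ≠ k) (hkj : k ≠ j) (hij : i ≠ j) (s t : F) :
    (∀ l, l ≠ j → l ≠ k → f (tr hij (s * t)) l = 0) ∧ f (tr hij (s * t)) k = -(s * f (tr hkj t) i) := by
  set A : Matrix.SpecialLinearGroup (Fin m) F := tr hik s with hA
  set B : Matrix.SpecialLinearGroup (Fin m) F := tr hkj t with hB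
  set C : Matrix.SpecialLinearGroup (Fin m) F := tr hij (s * t) with hC
  have hAB : A * B = C * (B * A) := by
    have h := CfsgLib.Classical.Linear.transvection_commutator hik hkj hij s t
    rw [hA, hB, hC, tr, tr, tr, ← h]
    group
  have h := congrArg f hAB
  rw [hmul, hmul, hmul, Matrix.SpecialLinearGroup.coe_mul, ← Matrix.vecMul_vecMul] at h
  have hpt : ∀ l, f B l + (f A ᵥ* (B : Matrix (Fin m) (Fin m) F)) l =
      f A l + (f B ᵥ* (A : Matrix (Fin m) (Fin m) F)) l +
        ((f C ᵥ* (B : Matrix (Fin m) (Fin m) F)) ᵥ* (A : Matrix (Fin m) (Fin m) F)) l := fun l => congrFun h l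
  simp only [hA, hB, vecMul_transvection] at hpt
  rw [← hA, ← hB] at hpt
  have hz : ∀ l, l ≠ j → l ≠ k → f C l = 0 := by
    intro l hlj hlk
    have h1 := hpt l
    simp only [if_neg hlj, if_neg hlk] at h1
    linear_combination -h1
  refine ⟨hz, ?_⟩
  have h1 := hpt k
  simp only [if_neg hkj, if_neg hij, if_true, hz i hij hik] at h1
  linear_combination -h1

include hmul hnt in
theorem false_of_four_le (hm : 4 ≤ m) : False := by
  let i : Fin m := ⟨0, by omega⟩
  let j : Fin m := ⟨1, by omega⟩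
  let k : Fin m := ⟨2, by omega⟩
  let k' : Fin m := ⟨3, by omega⟩
  have hij : i ≠ j := by simp [i, j]
  obtain ⟨l, hlj, hl⟩ := exists_off_axis f hnt hij
  by_cases hlk : l = k
  · have h := (commutator_value f hmul (i := i) (k := k') (j := j) (by simp [i, k']) (by simp [k', j]) hij (1 : F) 1).1
      l hlj (by rw [hlk]; simp [k, k'])
    exact hl (by simpa using h)
  · have h := (commutator_value f hmul (i := i) (k := k) (j := j) (by simp [i, k]) (by simp [k, j]) hij (1 : F) 1).1
      l hlj hlk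
    exact hl (by simpa using h)

end CfsgLib.MinIndex

namespace CfsgLib.MinIndex

variable {F : Type*} [Field F]


theorem false_of_two (f : Matrix.SpecialLinearGroup (Fin 2) F → (Fin 2 → F))
    (hmul : ∀ A B, f (A * B) = f B + f A ᵥ* (B : Matrix (Fin 2) (Fin 2) F))
    (hnt : ∀ (D : Matrix.SpecialLinearGroup (Fin 2) F) (a b : Fin 2 → F), a ≠ 0 → b ≠ 0 →
      (D : Matrix (Fin 2) (Fin 2) F) = 1 + vecMulVec a b → ∀ c : F, f D ≠ c • b) : False := by
  have h01 : (0 : Fin 2) ≠ 1 := by decide
  set x : Matrix.SpecialLinearGroup (Fin 2) F := tr h01 1 with hx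
  obtain ⟨l, hl, hl0⟩ := exists_off_axis f hnt h01
  have hl' : l = 0 := by omega
  subst hl'
  rw [← hx] at hl0
  by_cases h2 : (1 : F) + 1 = 0
  · -- `x ^ 2 = 1`
    have hxx : x * x = 1 := by
      rw [hx]
      apply Subtype.ext
      show ((tr h01 (1 : F) : Matrix.SpecialLinearGroup (Fin 2) F) : Matrix (Fin 2) (Fin 2) F) *
        ((tr h01 (1 : F) : Matrix.SpecialLinearGroup (Fin 2) F) : Matrix (Fin 2) (Fin 2) F) = 1
      rw [Matrix.SpecialLinearGroup.transvection_coe]
      ext a b
      fin_cases a <;> fin_cases b <;> simp [Matrix.mul_apply, Fin.sum_univ_two, h2]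
    have h1 : f 1 = 0 := by
      have h := hmul 1 1
      rw [mul_one, Matrix.SpecialLinearGroup.coe_one, Matrix.vecMul_one] at h
      exact left_eq_add.1 h
    have h := congrFun (congrArg f hxx) 1
    rw [hmul, h1, Pi.add_apply, hx, vecMul_transvection, if_pos rfl, one_mul, Pi.zero_apply, ← hx] at h
    apply hl0
    linear_combination h - (f x 1) * h2
  · let z : Matrix.SpecialLinearGroup (Fin 2) F := ⟨-1, by simp [Matrix.det_neg]⟩
    have hz : z * x = x * z := by
      apply Subtype.ext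
      show (-1 : Matrix (Fin 2) (Fin 2) F) * _ = _ * (-1 : Matrix (Fin 2) (Fin 2) F)
      simp
    have h := congrFun (congrArg f hz) 0
    rw [hmul, hmul, Pi.add_apply, Pi.add_apply] at h
    conv at h => lhs; rw [hx, vecMul_transvection, if_neg h01, ← hx]
    have hzv : (f x ᵥ* (z : Matrix (Fin 2) (Fin 2) F)) 0 = -f x 0 := by
      show (f x ᵥ* (-1 : Matrix (Fin 2) (Fin 2) F)) 0 = _
      simp [Matrix.vecMul_neg]
    rw [hzv] at h
    have : (1 + 1) * f x 0 = 0 := by linear_combination h
    exact hl0 ((mul_eq_zero.1 this).resolve_left h2)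

theorem false_of_three (hF : ∃ t : F, t ≠ 0 ∧ t ≠ 1) (f : Matrix.SpecialLinearGroup (Fin 3) F → (Fin 3 → F))
    (hmul : ∀ A B, f (A * B) = f B + f A ᵥ* (B : Matrix (Fin 3) (Fin 3) F))
    (hnt : ∀ (D : Matrix.SpecialLinearGroup (Fin 3) F) (a b : Fin 3 → F), a ≠ 0 → b ≠ 0 →
      (D : Matrix (Fin 3) (Fin 3) F) = 1 + vecMulVec a b → ∀ c : F, f D ≠ c • b) : False := by
  have h01 : (0 : Fin 3) ≠ 1 := by decide
  have h12 : (1 : Fin 3) ≠ 2 := by decide
  have h02 : (0 : Fin 3) ≠ 2 := by decide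
  have hcv := fun s t => commutator_value f hmul h01 h12 h02 s t
  set b₀ : F → F := fun t => f (tr h12 t) 0 with hb₀
  have hC : ∀ u, f (tr h02 u) 1 = -b₀ u := fun u => by
    have h := (hcv 1 u).2
    rwa [one_mul, one_mul] at h
  have hlin : ∀ u, b₀ u = u * b₀ 1 := fun u => by
    have h := (hcv u 1).2
    rw [mul_one, hC] at h
    exact neg_inj.1 h
  set κ := b₀ 1 with hκdef
  have hκ : κ ≠ 0 := by
    intro h0
    obtain ⟨l, hl, hl0⟩ := exists_off_axis f hnt h02
    apply hl0
    by_cases h : l = 1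
    · subst h
      rw [hC]; show -κ = 0; rw [h0, neg_zero]
    · have h' := (hcv 1 1).1 l hl h
      rwa [one_mul] at h'
  set b : Matrix.SpecialLinearGroup (Fin 3) F := tr h12 1 with hb
  set c : Matrix.SpecialLinearGroup (Fin 3) F := tr h02 1 with hc
  have hbc : b * c = c * b := CfsgLib.Classical.Linear.transvection_commute h12 h02 (by decide) (by decide) 1 1
  have h2 : (1 : F) + 1 = 0 := by
    have h := congrFun (congrArg f hbc) 2
    rw [hmul, hmul, Pi.add_apply, Pi.add_apply, hb, hc, vecMul_transvection, vecMul_transvection, if_pos rfl,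
      one_mul, if_pos rfl, one_mul, hC] at h
    have h' : (1 + 1) * κ = 0 := by
      show (1 + 1) * f (tr h12 1) 0 = 0
      linear_combination h
    exact (mul_eq_zero.1 h').resolve_right hκ
  obtain ⟨t, ht0, ht1⟩ := hF
  let τ : Matrix.SpecialLinearGroup (Fin 3) F :=
    ⟨Matrix.diagonal ![t, t, t⁻¹ * t⁻¹], by
      rw [Matrix.det_diagonal, Fin.prod_univ_three]
      simp only [Matrix.cons_val_zero, Matrix.cons_val_one, Matrix.cons_val_two, Matrix.tail_cons, Matrix.head_cons]
      field_simp⟩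
  have hτ : τ * b = tr h12 (t * t * t) * τ := by
    apply Subtype.ext
    show Matrix.diagonal ![t, t, t⁻¹ * t⁻¹] * ((b : Matrix.SpecialLinearGroup (Fin 3) F) : Matrix (Fin 3) (Fin 3) F) =
      ((tr h12 (t * t * t) : Matrix.SpecialLinearGroup (Fin 3) F) : Matrix (Fin 3) (Fin 3) F) * Matrix.diagonal ![t, t, t⁻¹ * t⁻¹]
    rw [hb, Matrix.SpecialLinearGroup.transvection_coe, Matrix.SpecialLinearGroup.transvection_coe]
    ext i j
    rw [Matrix.diagonal_mul, Matrix.mul_diagonal]
    fin_cases i <;> fin_cases j <;> simp <;> field_simp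
  have h := congrFun (congrArg f hτ) 0
  rw [hmul, hmul, Pi.add_apply, Pi.add_apply] at h
  conv at h => lhs; rw [hb, vecMul_transvection, if_neg h02, add_zero]
  have hτv : (f (tr h12 (t * t * t)) ᵥ* (τ : Matrix (Fin 3) (Fin 3) F)) 0 = t * t * t * κ * t := by
    show (f (tr h12 (t * t * t)) ᵥ* Matrix.diagonal ![t, t, t⁻¹ * t⁻¹]) 0 = _
    rw [Matrix.vecMul_diagonal]
    show b₀ (t * t * t) * t = _
    rw [hlin]
  rw [hτv] at h
  have h4 : κ * ((t - 1) * (t - 1) * ((t - 1) * (t - 1))) = 0 := by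
    have e : f (tr h12 1) 0 = κ := rfl
    rw [e] at h
    linear_combination (-1 : F) * h + (κ * (1 - 2 * t + 3 * t ^ 2 - 2 * t ^ 3)) * h2
  rcases mul_eq_zero.1 h4 with h5 | h5
  · exact hκ h5
  · simp only [mul_eq_zero, or_self, sub_eq_zero] at h5
    exact ht1 h5

end CfsgLib.MinIndex
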