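import Mathlib
import Cfsg.Agent.Classical.Linear.Transitivity

/-!
Actions of the additive group of `F^m` with a symmetry by `SL_m`, without fixed points and on fewer than
`1 + q + ⋯ + q^m` points: either regular, or every stabiliser is a hyperplane.
-/

set_option autoImplicit false

open Matrix

namespace CfsgLib.MinIndex

/-- The stabiliser of a point in an additive action given as a function. -/
def addStab {X Ω : Type*} [AddCommGroup X] (act : X → Ω → Ω) (h0 : ∀ w, act 0 w = w)
    (hadd : ∀ x y w, act (x + y) w = act x (act y w)) (w : Ω) : AddSubgroup X where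
  carrier := {x | act x w = w}
  zero_mem' := h0 w
  add_mem' {x y} hx hy := by
    show act (x + y) w = w
    rw [hadd, show act y w = w from hy, show act x w = w from hx]
  neg_mem' {x} hx := by
    show act (-x) w = w
    conv_lhs => rw [← show act x w = w from hx]
    rw [← hadd, neg_add_cancel, h0]

theorem mem_addStab {X Ω : Type*} [AddCommGroup X] {act : X → Ω → Ω} {h0 : ∀ w, act 0 w = w}
    {hadd : ∀ x y w, act (x + y) w = act x (act y w)} {w : Ω} {x : X} :
    x ∈ addStab act h0 hadd w ↔ act x w = w := Iff.rfl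

/-- The orbit relation. -/
def orbSetoid {X Ω : Type*} [AddCommGroup X] (act : X → Ω → Ω) (h0 : ∀ w, act 0 w = w)
    (hadd : ∀ x y w, act (x + y) w = act x (act y w)) (B : AddSubgroup X) : Setoid Ω where
  r a b := ∃ x ∈ B, act x a = b
  iseqv := ⟨fun a => ⟨0, B.zero_mem, h0 a⟩,
    fun {a b} ⟨x, hx, h⟩ => ⟨-x, B.neg_mem hx, by rw [← h, ← hadd, neg_add_cancel, h0]⟩,
    fun {a b c} ⟨x, hx, h⟩ ⟨y, hy, h'⟩ => ⟨y + x, B.add_mem hy hx, by rw [hadd, h, h']⟩⟩

section Count

variable {X Ω : Type*} [AddCommGroup X] [Finite X] [Finite Ω] (act : X → Ω → Ω) (h0 : ∀ w, act 0 w = w)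
  (hadd : ∀ x y w, act (x + y) w = act x (act y w))

/-- Burnside's lemma for a subgroup. -/
theorem sum_fixed (B : AddSubgroup X) [Fintype B] :
    ∑ x : B, Nat.card {w // act x w = w} = Nat.card (Quotient (orbSetoid act h0 hadd B)) * Nat.card B := by
  classical
  letI : MulAction (Multiplicative B) Ω :=
    { smul := fun x w => act (Multiplicative.toAdd x : B) w
      one_smul := fun w => h0 w
      mul_smul := fun x y w => hadd _ _ w }
  haveI : Fintype Ω := Fintype.ofFinite Ω
  have h := MulAction.sum_card_fixedBy_eq_card_orbits_mul_card_group (Multiplicative B) Ω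
  have e : Quotient (MulAction.orbitRel (Multiplicative B) Ω) ≃ Quotient (orbSetoid act h0 hadd B) :=
    Quotient.congr (Equiv.refl _) fun a b => by
      constructor
      · rintro ⟨x, hx⟩
        exact (orbSetoid act h0 hadd B).iseqv.symm ⟨_, (Multiplicative.toAdd x : B).2, hx⟩
      · intro h
        obtain ⟨x, hx, hxa⟩ := (orbSetoid act h0 hadd B).iseqv.symm h
        exact ⟨Multiplicative.ofAdd (⟨x, hx⟩ : B), hxa⟩
  rw [← Nat.card_congr e, Nat.card_eq_fintype_card, Nat.card_eq_fintype_card (α := B), ← Fintype.card_multiplicative B]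
  refine Eq.trans ?_ h
  refine (Fintype.sum_equiv Multiplicative.ofAdd _ _ fun x => ?_)
  rw [Nat.card_eq_fintype_card]
  exact Fintype.card_congr (Equiv.refl _)

theorem sum_fixed_const (B : AddSubgroup X) (c : ℕ) (hc : ∀ x : X, x ≠ 0 → Nat.card {w // act x w = w} = c) :
    Nat.card Ω + (Nat.card B - 1) * c = Nat.card (Quotient (orbSetoid act h0 hadd B)) * Nat.card B := by
  classical
  haveI : Fintype B := Fintype.ofFinite B
  rw [← sum_fixed act h0 hadd B, ← Finset.add_sum_erase _ _ (Finset.mem_univ (0 : B))]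
  congr 1
  · rw [Nat.card_congr (Equiv.subtypeUnivEquiv (p := fun w => act ((0 : B) : X) w = w) fun w => h0 w)]
  · rw [Finset.sum_congr rfl fun (x : B) hx => hc (x : X) fun h => Finset.ne_of_mem_erase hx (Subtype.ext h),
      Finset.sum_const, smul_eq_mul, Finset.card_erase_of_mem (Finset.mem_univ _), Finset.card_univ,
      Nat.card_eq_fintype_card]

/-- In the borderline case the stabiliser of a point is transitive on every other orbit. -/
theorem exists_transitive (c : ℕ) (hc : ∀ x : X, x ≠ 0 → Nat.card {w // act x w = w} = c)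
    (hM : Nat.card Ω = c + Nat.card X) (w w' : Ω) (hw : ∀ x, act x w ≠ w') (x : X) :
    ∃ b ∈ addStab act h0 hadd w, ∃ b' ∈ addStab act h0 hadd w', x = b + b' := by
  classical
  haveI : Fintype Ω := Fintype.ofFinite Ω
  set B := addStab act h0 hadd w with hB
  set SX := orbSetoid act h0 hadd ⊤
  set SB := orbSetoid act h0 hadd B
  let proj : Quotient SB → Quotient SX := Quotient.map' id fun a b ⟨y, _, hy⟩ => ⟨y, AddSubgroup.mem_top _, hy⟩
  have hr : Nat.card (Quotient SX) = c + 1 := by
    have h := sum_fixed_const act h0 hadd ⊤ c hc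
    rw [AddSubgroup.card_top] at h
    have hX : 0 < Nat.card X := Nat.card_pos
    refine Nat.eq_of_mul_eq_mul_right hX (h.symm.trans ?_)
    rw [hM]
    obtain ⟨k, hk⟩ := Nat.exists_eq_succ_of_ne_zero hX.ne'
    rw [hk, Nat.succ_sub_one, Nat.succ_eq_add_one]; ring
  -- the orbit of `w`
  let O := {v : Ω // ∃ y, act y w = v}
  have hO : Nat.card O * Nat.card B = Nat.card X := by
    rw [← B.card_mul_index, AddSubgroup.index, mul_comm]
    congr 1
    refine (Nat.card_congr (Equiv.ofBijective
      (fun q : X ⧸ B => (Quotient.liftOn' q (fun y => (⟨act y w, y, rfl⟩ : O)) fun a b hab => by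
        rw [QuotientAddGroup.leftRel_apply] at hab
        apply Subtype.ext
        show act a w = act b w
        conv_lhs => rw [← mem_addStab.1 hab, ← hadd, add_neg_cancel_left])) ⟨?_, ?_⟩)).symm
    · intro a b
      induction a using Quotient.inductionOn' with | h a => ?_
      induction b using Quotient.inductionOn' with | h b => ?_
      intro h
      apply Quotient.sound'
      rw [QuotientAddGroup.leftRel_apply]
      show act (-a + b) w = w
      rw [hadd, ← show act a w = act b w from congrArg Subtype.val h, ← hadd, neg_add_cancel, h0]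
    · rintro ⟨v, y, rfl⟩
      exact ⟨Quotient.mk'' y, rfl⟩
  have hfixO : ∀ v : O, ∀ y ∈ B, act y v.1 = v.1 := by
    rintro ⟨v, z, rfl⟩ y hy
    rw [← hadd, add_comm, hadd, show act y w = w from hy]
  -- compare with a section
  let R := {o : Quotient SX // o ≠ Quotient.mk SX w}
  let ι : O ⊕ R → Quotient SB := Sum.elim (fun v => Quotient.mk SB v.1) (fun o => Quotient.mk SB o.1.out)
  have hproj : ∀ a, proj (Quotient.mk SB a) = Quotient.mk SX a := fun a => rfl
  have hι : Function.Injective ι := by
    rintro (v | o) (v' | o') h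
    · obtain ⟨y, hy, hyv⟩ := Quotient.exact (s := SB) h
      exact congrArg Sum.inl (Subtype.ext ((hfixO v y hy).symm.trans hyv))
    · exfalso
      have h' := congrArg proj h
      simp only [ι, Sum.elim_inl, Sum.elim_inr, hproj, Quotient.out_eq] at h'
      obtain ⟨z, hz⟩ := v.2
      exact o'.2 (h'.symm.trans (Quotient.sound (s := SX) (SX.iseqv.symm ⟨z, AddSubgroup.mem_top _, hz⟩)))
    · exfalso
      have h' := congrArg proj h
      simp only [ι, Sum.elim_inl, Sum.elim_inr, hproj, Quotient.out_eq] at h'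
      obtain ⟨z, hz⟩ := v'.2
      exact o.2 (h'.trans (Quotient.sound (s := SX) (SX.iseqv.symm ⟨z, AddSubgroup.mem_top _, hz⟩)))
    · have h' := congrArg proj h
      simp only [ι, Sum.elim_inr, hproj, Quotient.out_eq] at h'
      exact congrArg Sum.inr (Subtype.ext h')
  have hcard : Nat.card (O ⊕ R) = Nat.card (Quotient SB) := by
    have h := sum_fixed_const act h0 hadd B c hc
    have hBpos : 0 < Nat.card B := Nat.card_pos
    refine Nat.eq_of_mul_eq_mul_right hBpos ?_
    rw [← h, hM, Nat.card_sum, add_mul, hO]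
    have hR : Nat.card R = c := by
      haveI : Fintype (Quotient SX) := Fintype.ofFinite _
      rw [Nat.card_eq_fintype_card] at hr ⊢
      rw [Fintype.card_subtype_compl, Fintype.card_subtype_eq, hr]
      rfl
    rw [hR]
    obtain ⟨k, hk⟩ := Nat.exists_eq_succ_of_ne_zero hBpos.ne'
    rw [hk, Nat.succ_sub_one, Nat.succ_eq_add_one]; ring
  have hsurj : Function.Surjective ι := ((Nat.bijective_iff_injective_and_card ι).2 ⟨hι, hcard⟩).2
  have key : ∀ a b : Ω, Quotient.mk SX a = Quotient.mk SX w' → Quotient.mk SX b = Quotient.mk SX w' →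
      Quotient.mk SB a = Quotient.mk SB b := by
    have hne : ∀ (v : O) a, Quotient.mk SB v.1 = Quotient.mk SB a → Quotient.mk SX a ≠ Quotient.mk SX w' := by
      intro v a h h'
      have h2 := (congrArg proj h).trans h'
      obtain ⟨y, -, hy⟩ := Quotient.exact (s := SX) h2
      obtain ⟨z, hz⟩ := v.2
      exact hw (y + z) (by rw [hadd, hz]; exact hy)
    intro a b ha hb
    obtain ⟨s, hs⟩ := hsurj (Quotient.mk SB a)
    obtain ⟨t, ht⟩ := hsurj (Quotient.mk SB b)
    rcases s with v | o
    · exact absurd ha (hne v a hs)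
    rcases t with v | o'
    · exact absurd hb (hne v b ht)
    have hso : o = o' := by
      have h1 := congrArg proj hs
      have h2 := congrArg proj ht
      simp only [ι, Sum.elim_inr, hproj, Quotient.out_eq] at h1 h2
      exact Subtype.ext (h1.trans (ha.trans (hb.symm.trans h2.symm)))
    rw [← hs, ← ht, hso]
  have hsame : Quotient.mk SX (act x w') = Quotient.mk SX w' :=
    Quotient.sound (s := SX) (SX.iseqv.symm ⟨x, AddSubgroup.mem_top _, rfl⟩)
  obtain ⟨b, hb, hbw⟩ := Quotient.exact (s := SB) (key w' (act x w') rfl hsame)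
  refine ⟨b, hb, x - b, ?_, (add_sub_cancel b x).symm⟩
  show act (x - b) w' = w'
  rw [sub_eq_neg_add, hadd, ← hbw, ← hadd, neg_add_cancel, h0]

end Count

section Linear

variable {F : Type*} [Field F] [Fintype F] {m : ℕ} {Ω : Type*} [Finite Ω] (act : (Fin m → F) → Ω → Ω)
  (h0 : ∀ w, act 0 w = w) (hadd : ∀ x y w, act (x + y) w = act x (act y w))

include h0 hadd in
/-- The dichotomy. -/
theorem regular_or_hyperplane (hm : 2 ≤ m)
    (hsym : ∀ D : Matrix.SpecialLinearGroup (Fin m) F, ∃ π : Ω ≃ Ω,
      ∀ x w, π (act x w) = act ((D : Matrix (Fin m) (Fin m) F) *ᵥ x) (π w))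
    (hfix : ∀ w, ∃ x, act x w ≠ w)
    (hlt : Nat.card Ω < ∑ i ∈ Finset.range (m + 1), Fintype.card F ^ i) :
    (Nat.card Ω = Fintype.card F ^ m ∧ ∀ w x, act x w = w → x = 0) ∨
      ∀ w, (∀ (a : F) x, act x w = w → act (a • x) w = w) ∧
        Fintype.card F * Nat.card {x // act x w = w} = Fintype.card F ^ m := by
  classical
  haveI : Fintype Ω := Fintype.ofFinite Ω
  haveI : Nontrivial (Fin m) := Fin.nontrivial_iff_two_le.mpr hm
  rcases isEmpty_or_nonempty Ω with hΩ | ⟨⟨w₀⟩⟩
  · exact Or.inr fun w => isEmptyElim w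
  have hq : 1 < Fintype.card F := Fintype.one_lt_card
  set q := Fintype.card F with hqdef
  have hX : Nat.card (Fin m → F) = q ^ m := by simp [hqdef]
  obtain ⟨x₀, hx₀⟩ : ∃ x : Fin m → F, x ≠ 0 := exists_ne 0
  set c := Nat.card {w // act x₀ w = w} with hcdef
  have hc : ∀ x : Fin m → F, x ≠ 0 → Nat.card {w // act x w = w} = c := by
    intro x hx
    obtain ⟨D, hD⟩ := CfsgLib.Classical.Linear.exists_sl_mulVec_eq hx₀ hx
    obtain ⟨π, hπ⟩ := hsym D
    refine (Nat.card_congr (π.subtypeEquiv fun w => ?_)).symm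
    rw [← hD, ← hπ, π.injective.eq_iff]
  have hltM : c < Nat.card Ω := by
    obtain ⟨x, hx⟩ := hfix w₀
    have hx0 : x ≠ 0 := fun h => hx (by rw [h, h0])
    rw [← hc x hx0, Nat.card_eq_fintype_card, Nat.card_eq_fintype_card]
    exact Fintype.card_subtype_lt (p := fun w => act x w = w) hx
  have hBurn := sum_fixed_const act h0 hadd ⊤ c hc
  rw [AddSubgroup.card_top, hX] at hBurn
  set r := Nat.card (Quotient (orbSetoid act h0 hadd ⊤))
  have hQ : 2 ≤ q ^ m := le_trans hq (Nat.le_self_pow (by omega) q)
  -- `|Ω| = c + q^m`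
  have hG : (q - 1) * (∑ i ∈ Finset.range m, q ^ i) + 1 = q ^ m := by
    have := geom_sum_mul_of_one_le hq.le m
    rw [mul_comm, this, Nat.sub_add_cancel (Nat.one_le_pow _ _ (by omega))]
  set G := ∑ i ∈ Finset.range m, q ^ i with hGdef
  have hGQ : G + 1 ≤ q ^ m := by
    have : G ≤ (q - 1) * G := Nat.le_mul_of_pos_left _ (by omega)
    omega
  have hsum : ∑ i ∈ Finset.range (m + 1), q ^ i = G + q ^ m := Finset.sum_range_succ _ _
  rw [hsum] at hlt
  have hM : Nat.card Ω = c + q ^ m := by
    obtain ⟨Q', hQ'⟩ := Nat.exists_eq_succ_of_ne_zero (show q ^ m ≠ 0 by omega)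
    rw [hQ'] at hBurn hlt hGQ hQ ⊢
    rw [Nat.succ_sub_one] at hBurn
    rcases lt_trichotomy r (c + 1) with h | h | h
    · have : r * Q'.succ ≤ c * Q'.succ := Nat.mul_le_mul_right _ (by omega)
      have e : c * Q'.succ = c + Q' * c := by rw [Nat.succ_eq_add_one]; ring
      omega
    · rw [h] at hBurn
      have e : (c + 1) * Q'.succ = c + Q' * c + Q'.succ := by rw [Nat.succ_eq_add_one]; ring
      omega
    · have : (c + 2) * Q'.succ ≤ r * Q'.succ := Nat.mul_le_mul_right _ (by omega)
      have e : (c + 2) * Q'.succ = c + Q' * c + 2 * Q'.succ := by rw [Nat.succ_eq_add_one]; ring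
      omega
  have hr : r = c + 1 := by
    refine Nat.eq_of_mul_eq_mul_right (show 0 < q ^ m by omega) ?_
    rw [← hBurn, hM]
    obtain ⟨Q', hQ'⟩ := Nat.exists_eq_succ_of_ne_zero (show q ^ m ≠ 0 by omega)
    rw [hQ', Nat.succ_sub_one, Nat.succ_eq_add_one]; ring
  rcases Nat.eq_zero_or_pos c with hc0 | hc0
  · left
    refine ⟨by omega, fun w x hx => ?_⟩
    by_contra hx0
    have h := hc x hx0
    rw [hc0, Nat.card_eq_zero] at h
    rcases h with h | h
    · exact h.false ⟨w, hx⟩
    · exact absurd h (not_infinite_iff_finite.2 inferInstance)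
  right
  have htrans := exists_transitive act h0 hadd c hc (by rw [hM, hX])
  have other : ∀ w, ∃ w', ∀ x, act x w ≠ w' := by
    intro w
    by_contra h
    push Not at h
    have hsub : Subsingleton (Quotient (orbSetoid act h0 hadd ⊤)) := ⟨fun a b => by
      induction a using Quotient.ind with | _ a => ?_
      induction b using Quotient.ind with | _ b => ?_
      obtain ⟨y, hy⟩ := h a
      obtain ⟨z, hz⟩ := h b
      exact (Quotient.sound (s := orbSetoid act h0 hadd ⊤) ⟨y, AddSubgroup.mem_top _, hy⟩).symm.trans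
        (Quotient.sound (s := orbSetoid act h0 hadd ⊤) ⟨z, AddSubgroup.mem_top _, hz⟩)⟩
    have : r ≤ 1 := Finite.card_le_one_iff_subsingleton.2 hsub
    omega
  -- a vector outside a stabiliser spans a complement
  have key : ∀ w, ∀ v, v ∉ addStab act h0 hadd w → (¬ ∀ b ∈ addStab act h0 hadd w, ∃ a : F, a • v = b) →
      ∀ x, ∃ a : F, ∃ b ∈ addStab act h0 hadd w, x = b + a • v := by
    intro w v hv hnot x
    by_contra hcon
    push Not at hnot
    obtain ⟨b, hb, hbv⟩ := hnot
    have hind : LinearIndependent F ![v, b] := by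
      refine (linearIndependent_fin2.2 ⟨?_, fun a => ?_⟩)
      · simp only [Matrix.cons_val_one, Matrix.cons_val_fin_one]
        intro hb0
        exact hbv 0 (by rw [zero_smul, hb0])
      · simp only [Matrix.cons_val_one, Matrix.cons_val_zero, Matrix.cons_val_fin_one]
        intro h
        rcases eq_or_ne a 0 with rfl | ha
        · rw [zero_smul] at h
          exact hv (h ▸ (addStab act h0 hadd w).zero_mem)
        · exact hbv a⁻¹ (by rw [← h, smul_smul, inv_mul_cancel₀ ha, one_smul])
    -- a functional killing `v` but not `b`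
    obtain ⟨φ, hφv, hφb⟩ : ∃ φ : Fin m → F, φ ⬝ᵥ v = 0 ∧ φ ⬝ᵥ b = 1 := by
      obtain ⟨f, hf⟩ := LinearMap.exists_extend
        ((Finsupp.linearCombination F ![(0 : F), 1]).comp hind.repr)
      refine ⟨(dotProductEquiv F (Fin m)).symm f, ?_, ?_⟩
      all_goals
        rw [show ∀ u, (dotProductEquiv F (Fin m)).symm f ⬝ᵥ u = f u from fun u =>
          LinearMap.congr_fun ((dotProductEquiv F (Fin m)).apply_symm_apply f) u]
      · have hm0 : ![v, b] 0 ∈ Submodule.span F (Set.range ![v, b]) := Submodule.subset_span ⟨0, rfl⟩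
        have h := LinearMap.congr_fun hf ⟨_, hm0⟩
        simp only [LinearMap.comp_apply, Submodule.subtype_apply] at h
        rw [hind.repr_eq_single 0 ⟨_, hm0⟩ rfl] at h
        simpa using h
      · have hm1 : ![v, b] 1 ∈ Submodule.span F (Set.range ![v, b]) := Submodule.subset_span ⟨1, rfl⟩
        have h := LinearMap.congr_fun hf ⟨_, hm1⟩
        simp only [LinearMap.comp_apply, Submodule.subtype_apply] at h
        rw [hind.repr_eq_single 1 ⟨_, hm1⟩ rfl] at h
        simpa using h
    have hD : ∀ a : F, ∃ D : Matrix.SpecialLinearGroup (Fin m) F, ∀ y,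
        (D : Matrix (Fin m) (Fin m) F) *ᵥ y = y + (a * (φ ⬝ᵥ y)) • v := by
      intro a
      refine ⟨⟨1 + Matrix.vecMulVec (a • v) φ, ?_⟩, fun y => ?_⟩
      · rw [Matrix.vecMulVec_eq Unit, Matrix.det_one_add_replicateCol_mul_replicateRow, dotProduct_smul, hφv, smul_zero, add_zero]
      · show (1 + Matrix.vecMulVec (a • v) φ) *ᵥ y = _
        rw [Matrix.add_mulVec, Matrix.one_mulVec, Matrix.vecMulVec_mulVec, op_smul_eq_smul, smul_smul, mul_comm]
    obtain ⟨D, hD⟩ := hD 1
    obtain ⟨π, hπ⟩ := hsym D
    have himg : ∀ y ∈ addStab act h0 hadd w, (D : Matrix (Fin m) (Fin m) F) *ᵥ y ∈ addStab act h0 hadd (π w) := by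
      intro y hy
      show act _ (π w) = π w
      rw [← hπ, show act y w = w from hy]
    by_cases hsame : ∀ y, act y w ≠ π w
    · -- transitive on the other orbit
      obtain ⟨b₁, hb₁, b₂, hb₂, hx⟩ := htrans w (π w) hsame x
      obtain ⟨y, hy⟩ : ∃ y ∈ addStab act h0 hadd w, (D : Matrix (Fin m) (Fin m) F) *ᵥ y = b₂ := by
        refine ⟨((D⁻¹ : Matrix.SpecialLinearGroup (Fin m) F) : Matrix (Fin m) (Fin m) F) *ᵥ b₂, π.injective ?_, ?_⟩
        · rw [hπ, Matrix.mulVec_mulVec, ← Matrix.SpecialLinearGroup.coe_mul, mul_inv_cancel,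
            Matrix.SpecialLinearGroup.coe_one, Matrix.one_mulVec]
          exact hb₂
        · rw [Matrix.mulVec_mulVec, ← Matrix.SpecialLinearGroup.coe_mul, mul_inv_cancel,
            Matrix.SpecialLinearGroup.coe_one, Matrix.one_mulVec]
      refine hcon ⟨1 * (φ ⬝ᵥ y), b₁ + y, (addStab act h0 hadd w).add_mem hb₁ hy.1, ?_⟩
      rw [hx, ← hy.2, hD, add_assoc]
    · -- `D` fixes the stabiliser
      push Not at hsame
      obtain ⟨y, hy⟩ := hsame
      have h1 := himg b hb
      rw [mem_addStab, ← hy, hD, hφb, one_mul, one_smul] at h1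
      have h2 : b + v ∈ addStab act h0 hadd w := by
        show act (b + v) w = w
        have h3 := congrArg (act (-y)) h1
        rwa [← hadd, ← hadd, ← hadd, show -y + (b + v) + y = b + v by abel, neg_add_cancel, h0] at h3
      exact hv (by simpa using (addStab act h0 hadd w).sub_mem h2 hb)
  -- stabilisers are neither everything nor trivial
  have hne : ∀ w, ∃ v, v ∉ addStab act h0 hadd w ∧ ¬ ∀ b ∈ addStab act h0 hadd w, ∃ a : F, a • v = b := by
    intro w
    obtain ⟨w', hw'⟩ := other w
    obtain ⟨b, hb, hb0⟩ : ∃ b ∈ addStab act h0 hadd w, b ≠ 0 := by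
      by_contra hcon
      push Not at hcon
      obtain ⟨x, hx⟩ := hfix w'
      obtain ⟨b, hb, b', hb', hxb⟩ := htrans w w' hw' x
      rw [hcon b hb, zero_add] at hxb
      exact hx (hxb ▸ hb')
    obtain ⟨v, hv⟩ := hfix w
    by_cases hvb : ∃ a : F, a • v = b
    · obtain ⟨a, ha⟩ := hvb
      obtain ⟨u, hu⟩ : ∃ u : Fin m → F, u ∉ Submodule.span F {v} := by
        by_contra hcon
        push Not at hcon
        have h1 : Module.finrank F (Submodule.span F {v}) = m := by
          rw [show Submodule.span F {v} = ⊤ from eq_top_iff.2 fun u _ => hcon u, finrank_top, Module.finrank_fin_fun]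
        have h2 := finrank_span_le_card ({v} : Set (Fin m → F)) (R := F)
        rw [h1] at h2
        simp at h2
        omega
      have hnot : ∀ a' : F, a' • u ≠ b := by
        intro a' h
        rcases eq_or_ne a' 0 with rfl | ha'
        · exact hb0 (by rw [← h, zero_smul])
        · exact hu (Submodule.mem_span_singleton.2 ⟨a'⁻¹ * a, by
            rw [← smul_smul, ha, ← h, smul_smul, inv_mul_cancel₀ ha', one_smul]⟩)
      by_cases hu' : u ∈ addStab act h0 hadd w
      · refine ⟨v, hv, fun h => ?_⟩
        obtain ⟨a'', ha''⟩ := h u hu'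
        exact hu (Submodule.mem_span_singleton.2 ⟨a'', ha''⟩)
      · exact ⟨u, hu', fun h => (h b hb).elim fun a' => hnot a'⟩
    · exact ⟨v, hv, fun h => hvb (h b hb)⟩
  have hle : ∀ w, q ^ m ≤ q * Nat.card (addStab act h0 hadd w) := by
    intro w
    obtain ⟨v, hv, hnot⟩ := hne w
    have hsurj : Function.Surjective (fun p : F × addStab act h0 hadd w => (p.2 : Fin m → F) + p.1 • v) := by
      intro x
      obtain ⟨a, b, hb, hx⟩ := key w v hv hnot x
      exact ⟨(a, ⟨b, hb⟩), hx.symm⟩
    have h := Nat.card_le_card_of_surjective _ hsurj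
    rwa [hX, Nat.card_prod, Nat.card_eq_fintype_card (α := F)] at h
  -- all orbits have exactly `q` points
  have horb : ∀ w, Nat.card {v // (Quotient.mk (orbSetoid act h0 hadd ⊤) v) = Quotient.mk _ w} *
      Nat.card (addStab act h0 hadd w) = q ^ m := by
    intro w
    rw [← hX]
    let f : (Fin m → F) → {v // (Quotient.mk (orbSetoid act h0 hadd ⊤) v) = Quotient.mk _ w} := fun x =>
      ⟨act x w, (Quotient.sound (s := orbSetoid act h0 hadd ⊤) ⟨x, AddSubgroup.mem_top _, rfl⟩).symm⟩
    rw [← (addStab act h0 hadd w).card_mul_index, AddSubgroup.index, mul_comm]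
    congr 1
    refine (Nat.card_congr (Equiv.ofBijective
      (fun x : (Fin m → F) ⧸ addStab act h0 hadd w => Quotient.liftOn' x f fun a b hab => by
        rw [QuotientAddGroup.leftRel_apply] at hab
        apply Subtype.ext
        show act a w = act b w
        conv_lhs => rw [← mem_addStab.1 hab, ← hadd, add_neg_cancel_left]) ⟨?_, ?_⟩)).symm
    · intro a b
      induction a using Quotient.inductionOn' with | h a => ?_
      induction b using Quotient.inductionOn' with | h b => ?_
      intro h
      apply Quotient.sound'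
      rw [QuotientAddGroup.leftRel_apply]
      show act (-a + b) w = w
      rw [hadd, ← show act a w = act b w from congrArg Subtype.val h, ← hadd, neg_add_cancel, h0]
    · rintro ⟨v, hv⟩
      obtain ⟨x, -, hx⟩ := Quotient.exact (s := orbSetoid act h0 hadd ⊤) hv.symm
      exact ⟨Quotient.mk'' x, Subtype.ext hx⟩
  haveI : Fintype (Quotient (orbSetoid act h0 hadd ⊤)) := Fintype.ofFinite _
  let fib : Quotient (orbSetoid act h0 hadd ⊤) → ℕ := fun o => Nat.card {v // Quotient.mk _ v = o}
  have hfib : ∀ o, fib o ≤ q := by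
    intro o
    induction o using Quotient.ind with | _ w => ?_
    have h1 := horb w
    have h2 := hle w
    rw [← h1] at h2
    exact Nat.le_of_mul_le_mul_right h2 Nat.card_pos
  have htot : ∑ o, fib o = c + q ^ m := by
    rw [← hM, ← Nat.card_congr (Equiv.sigmaFiberEquiv (Quotient.mk (orbSetoid act h0 hadd ⊤)))]
    rw [Nat.card_sigma]
  have hall : ∀ o, fib o = q := by
    intro o
    by_contra hne
    have h1 : ∑ o', fib o' < ∑ o' : Quotient (orbSetoid act h0 hadd ⊤), q :=
      Finset.sum_lt_sum (fun o' _ => hfib o') ⟨o, Finset.mem_univ _, lt_of_le_of_ne (hfib o) hne⟩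
    rw [htot, Finset.sum_const, smul_eq_mul, Finset.card_univ, ← Nat.card_eq_fintype_card,
      show Nat.card (Quotient (orbSetoid act h0 hadd ⊤)) = c + 1 from hr] at h1
    -- `c < G`
    have h2 : c + 1 ≤ G := by omega
    have h3 : (c + 1) * q = (c + 1) + (q - 1) * (c + 1) := by
      obtain ⟨q', hq'⟩ := Nat.exists_eq_succ_of_ne_zero (show q ≠ 0 by omega)
      rw [hq', Nat.succ_sub_one, Nat.succ_eq_add_one]; ring
    have h4 : (q - 1) * (c + 1) ≤ (q - 1) * G := Nat.mul_le_mul_left _ h2
    omega
  intro w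
  have hcard : q * Nat.card {x // act x w = w} = q ^ m := by
    rw [← horb w, show Nat.card {v // Quotient.mk (orbSetoid act h0 hadd ⊤) v = Quotient.mk _ w} = q from
      hall (Quotient.mk _ w)]
    rfl
  refine ⟨fun a x hx => ?_, hcard⟩
  by_contra hax
  have ha0 : a ≠ 0 := fun h => hax (by rw [h, zero_smul, h0])
  set v := a • x with hvdef
  have hnot : ¬ ∀ b ∈ addStab act h0 hadd w, ∃ e : F, e • v = b := by
    intro h
    -- then the stabiliser would fill the line
    have hinj : Function.Injective (fun b : addStab act h0 hadd w => Classical.choose (h b b.2)) := by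
      intro b b' hb
      apply Subtype.ext
      rw [← Classical.choose_spec (h b b.2), ← Classical.choose_spec (h b' b'.2)]
      exact congrArg (· • v) hb
    have h1 := Nat.card_le_card_of_injective _ hinj
    rw [Nat.card_eq_fintype_card (α := F)] at h1
    have h2 := hle w
    have h5 : Nat.card (addStab act h0 hadd w) = q := by
      refine le_antisymm h1 ?_
      have h3 : q * q ≤ q * Nat.card (addStab act h0 hadd w) :=
        le_trans (by rw [← sq]; exact Nat.pow_le_pow_right (by omega) hm) h2
      exact Nat.le_of_mul_le_mul_left h3 (by omega)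
    have hsurj := ((Nat.bijective_iff_injective_and_card _).2 ⟨hinj, by
      rw [h5, Nat.card_eq_fintype_card]⟩).2 1
    obtain ⟨b, hb⟩ := hsurj
    have h6 := Classical.choose_spec (h b b.2)
    rw [show Classical.choose (h b b.2) = 1 from hb, one_smul] at h6
    exact hax (h6 ▸ b.2)
  have hbij : Function.Injective (fun p : F × addStab act h0 hadd w => (p.2 : Fin m → F) + p.1 • v) := by
    refine ((Nat.bijective_iff_surjective_and_card _).2 ⟨fun y => ?_, ?_⟩).1
    · obtain ⟨e, b, hb, hy⟩ := key w v hax hnot y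
      exact ⟨(e, ⟨b, hb⟩), hy.symm⟩
    · rw [Nat.card_prod, Nat.card_eq_fintype_card (α := F), hX]
      exact hcard
  have := @hbij (a⁻¹, 0) (0, ⟨x, hx⟩) (by
    simp only [AddSubgroup.coe_zero, zero_add, hvdef, smul_smul, inv_mul_cancel₀ ha0, one_smul, zero_mul, zero_smul, add_zero])
  exact (inv_ne_zero ha0) (congrArg Prod.fst this)

end Linear

end CfsgLib.MinIndex
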