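import Mathlib
import Cfsg.Agent.MinIndex.Orbit
import Cfsg.Agent.AutPSL.SubgroupIndex

/-!
Transvections in a subgroup of small index of `SL_n`: the possible configurations are contradictory.
-/

set_option autoImplicit false

open Matrix
open scoped LinearAlgebra.Projectivization Pointwise

namespace CfsgLib.MinIndex

variable {F : Type*} [Field F] [Fintype F] {n : ℕ}

local notation "V" => Fin n → F
local notation "SLn" => Matrix.SpecialLinearGroup (Fin n) F

/-- The transvection with centre `v` and axis `φ`. -/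
def tv (v φ : V) (h : φ ⬝ᵥ v = 0) : SLn :=
  ⟨1 + Matrix.vecMulVec v φ, by
    rw [Matrix.vecMulVec_eq Unit, Matrix.det_one_add_replicateCol_mul_replicateRow, h, add_zero]⟩

/-- `H` contains the transvection with centre `v` and axis `φ`. -/
def InH (H : Subgroup SLn) (v φ : V) : Prop := ∃ h : φ ⬝ᵥ v = 0, tv v φ h ∈ H

theorem tv_mul (v φ ψ : V) (hφ : φ ⬝ᵥ v = 0) (hψ : ψ ⬝ᵥ v = 0) :
    tv v φ hφ * tv v ψ hψ = tv v (φ + ψ) (by rw [add_dotProduct, hφ, hψ, add_zero]) := by
  apply Subtype.ext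
  show (1 + vecMulVec v φ) * (1 + vecMulVec v ψ) = 1 + vecMulVec v (φ + ψ)
  rw [mul_add, mul_one, add_mul, one_mul, vecMulVec_mul_vecMulVec, hφ, zero_smul]
  simp [Matrix.vecMulVec_add]
  abel

theorem tv_zero (v : V) : tv v 0 (zero_dotProduct v) = 1 := by
  apply Subtype.ext
  show 1 + vecMulVec v (0 : V) = 1
  simp

theorem conj_tv (g : SLn) (v φ : V) (h : φ ⬝ᵥ v = 0)
    (h' : (φ ᵥ* ((g⁻¹ : SLn) : Matrix (Fin n) (Fin n) F)) ⬝ᵥ ((g : Matrix (Fin n) (Fin n) F) *ᵥ v) = 0) :
    g * tv v φ h * g⁻¹ = tv ((g : Matrix (Fin n) (Fin n) F) *ᵥ v) (φ ᵥ* ((g⁻¹ : SLn) : Matrix (Fin n) (Fin n) F)) h' :=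
  Subtype.ext (CfsgLib.Classical.Linear.sl_mul_one_add_vecMulVec_mul_inv g v φ)

theorem vecMul_dotProduct_mulVec (g : SLn) (v φ : V) :
    (φ ᵥ* ((g⁻¹ : SLn) : Matrix (Fin n) (Fin n) F)) ⬝ᵥ ((g : Matrix (Fin n) (Fin n) F) *ᵥ v) = φ ⬝ᵥ v := by
  rw [Matrix.dotProduct_mulVec, Matrix.vecMul_vecMul, ← Matrix.SpecialLinearGroup.coe_mul, inv_mul_cancel,
    Matrix.SpecialLinearGroup.coe_one, Matrix.vecMul_one]

theorem InH.smul_iff {H : Subgroup SLn} {c : F} (hc : c ≠ 0) {v φ : V} :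
    InH H (c • v) φ ↔ InH H v (c • φ) := by
  constructor
  · rintro ⟨h, hH⟩
    refine ⟨by rwa [smul_dotProduct, ← dotProduct_smul], ?_⟩
    convert hH using 1
    apply Subtype.ext
    show 1 + vecMulVec v (c • φ) = 1 + vecMulVec (c • v) φ
    simp [Matrix.vecMulVec_smul, Matrix.smul_vecMulVec]
  · rintro ⟨h, hH⟩
    refine ⟨by rwa [dotProduct_smul, ← smul_dotProduct], ?_⟩
    convert hH using 1
    apply Subtype.ext
    show 1 + vecMulVec (c • v) φ = 1 + vecMulVec v (c • φ)
    simp [Matrix.vecMulVec_smul, Matrix.smul_vecMulVec]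

/-- A proper non-zero subspace has a stabiliser of index at least the number of points. -/
theorem card_points_le_index (hn : 3 ≤ n) (W : Submodule F V) (hbot : W ≠ ⊥) (htop : W ≠ ⊤) :
    Nat.card (ℙ F V) ≤ (MulAction.stabilizer SLn W).index := by
  have h1 : 1 ≤ Module.finrank F W := Submodule.one_le_finrank_iff.mpr hbot
  have h2 : Module.finrank F W < n := by
    have h := Submodule.finrank_lt htop
    rwa [Module.finrank_fintype_fun_eq_card, Fintype.card_fin] at h
  rcases eq_or_lt_of_le h1 with hk | hk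
  · obtain ⟨v, hv, hv0⟩ := Submodule.exists_mem_ne_zero_of_ne_bot hbot
    have hW : W = Submodule.span F {v} := (Submodule.eq_of_le_of_finrank_le
      ((Submodule.span_singleton_le_iff_mem v W).mpr hv) (by rw [finrank_span_singleton hv0]; omega)).symm
    rw [hW, CfsgLib.AutPSL.span_singleton_eq_point hv0, CfsgLib.AutPSL.index_stabilizer_point (by omega)]
  rcases eq_or_lt_of_le (show Module.finrank F W + 1 ≤ n by omega) with hk' | hk'
  · obtain ⟨f, hf0, hfW⟩ := Submodule.exists_le_ker_of_lt_top W (lt_top_iff_ne_top.mpr htop)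
    have hv : (dotProductEquiv F (Fin n)).symm f ≠ 0 := by
      rw [Ne, LinearEquiv.map_eq_zero_iff]; exact hf0
    have hfv : ∀ w ∈ W, ((dotProductEquiv F (Fin n)).symm f) ⬝ᵥ w = 0 := fun w hw =>
      (LinearMap.congr_fun ((dotProductEquiv F (Fin n)).apply_symm_apply f) w).trans (hfW hw)
    have heq : MulAction.stabilizer SLn W =
        (MulAction.stabilizer SLn (Projectivization.mk F _ hv)).comap
          (CfsgLib.AutPSL.invTrSL : MulAut SLn).toMonoidHom := by
      ext g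
      exact (CfsgLib.AutPSL.inv_transpose_mem_stabilizer htop (by omega) hv hfv g).symm
    rw [heq, Subgroup.index_comap_of_surjective _ (CfsgLib.AutPSL.invTrSL : MulAut SLn).surjective,
      CfsgLib.AutPSL.index_stabilizer_point (by omega)]
  · refine le_of_lt (lt_of_lt_of_le CfsgLib.AutPSL.card_points_lt_pow (le_trans ?_ (CfsgLib.AutPSL.pow_le_index_stabilizer W)))
    refine Nat.pow_le_pow_right Fintype.card_pos ?_
    obtain ⟨a, ha⟩ : ∃ a, Module.finrank F W = a + 2 := ⟨Module.finrank F W - 2, by omega⟩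
    obtain ⟨b, hb⟩ : ∃ b, n - Module.finrank F W = b + 2 := ⟨n - Module.finrank F W - 2, by omega⟩
    rw [hb, ha]
    have : n = a + b + 4 := by omega
    rw [this]
    ring_nf
    nlinarith

/-- A subgroup of small index contains no full radical. -/
theorem not_forall_inH (hn : 3 ≤ n) (H : Subgroup SLn) (hH : H ≠ ⊤) (hidx : H.index < Nat.card (ℙ F V))
    {v : V} (hv : v ≠ 0) : ¬ ∀ φ : V, φ ⬝ᵥ v = 0 → InH H v φ := by
  classical
  intro hall
  let O : Set V := {u | ∀ φ : V, φ ⬝ᵥ u = 0 → InH H u φ}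
  have hsmul : ∀ (c : F) u, u ∈ O → c • u ∈ O := by
    intro c u hu φ hφ
    rcases eq_or_ne c 0 with rfl | hc
    · refine ⟨by simp, ?_⟩
      convert H.one_mem
      apply Subtype.ext
      show 1 + vecMulVec ((0 : F) • u) φ = 1
      simp
    · rw [InH.smul_iff hc]
      exact hu _ (by rw [smul_dotProduct, ← dotProduct_smul]; exact hφ)
  have hmov : ∀ h ∈ H, ∀ u ∈ O, (h : Matrix (Fin n) (Fin n) F) *ᵥ u ∈ O := by
    intro h hh u hu φ hφ
    have hψ : (φ ᵥ* (h : Matrix (Fin n) (Fin n) F)) ⬝ᵥ u = 0 := by rw [← Matrix.dotProduct_mulVec]; exact hφ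
    obtain ⟨h1, hmem⟩ := hu _ hψ
    refine ⟨hφ, ?_⟩
    have h2 := H.mul_mem (H.mul_mem hh hmem) (H.inv_mem hh)
    convert h2 using 1
    apply Subtype.ext
    show 1 + vecMulVec _ φ = (h : Matrix (Fin n) (Fin n) F) * (1 + vecMulVec u _) *
      ((h⁻¹ : SLn) : Matrix (Fin n) (Fin n) F)
    rw [CfsgLib.Classical.Linear.sl_mul_one_add_vecMulVec_mul_inv, Matrix.vecMul_vecMul,
      ← Matrix.SpecialLinearGroup.coe_mul, mul_inv_cancel, Matrix.SpecialLinearGroup.coe_one, Matrix.vecMul_one]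
  have hadd : ∀ u ∈ O, ∀ u' ∈ O, u + u' ∈ O := by
    intro u hu u' hu'
    by_cases hc : ∃ c : F, c • u = u'
    · obtain ⟨c, rfl⟩ := hc
      rw [show u + c • u = (1 + c) • u by rw [add_smul, one_smul]]
      exact hsmul _ _ hu
    push Not at hc
    rcases eq_or_ne u 0 with rfl | hu0
    · rwa [zero_add]
    have hnot : u' ∉ Submodule.span F {u} := fun h => by
      obtain ⟨c, hc'⟩ := Submodule.mem_span_singleton.1 h
      exact hc c hc'
    obtain ⟨f, hf1, hf2⟩ := Submodule.exists_dual_map_eq_bot_of_notMem hnot inferInstance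
    set φ := (f u')⁻¹ • (dotProductEquiv F (Fin n)).symm f with hφdef
    have hφ : ∀ w, φ ⬝ᵥ w = (f u')⁻¹ * f w := fun w => by
      rw [hφdef, smul_dotProduct, smul_eq_mul]
      exact congrArg _ (LinearMap.congr_fun ((dotProductEquiv F (Fin n)).apply_symm_apply f) w)
    have hfu : f u = 0 := by
      have h : f u ∈ (Submodule.span F {u}).map f := Submodule.mem_map_of_mem (Submodule.mem_span_singleton_self u)
      rwa [hf2, Submodule.mem_bot] at h
    have h1 : φ ⬝ᵥ u = 0 := by rw [hφ, hfu, mul_zero]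
    obtain ⟨_, hmem⟩ := hu φ h1
    have h2 := hmov _ hmem u' hu'
    have h3 : ((tv u φ h1 : SLn) : Matrix (Fin n) (Fin n) F) *ᵥ u' = u + u' := by
      show (1 + vecMulVec u φ) *ᵥ u' = _
      rw [Matrix.add_mulVec, Matrix.one_mulVec, Matrix.vecMulVec_mulVec, op_smul_eq_smul, hφ,
        inv_mul_cancel₀ hf1, one_smul, add_comm]
    rwa [h3] at h2
  let W : Submodule F V :=
    { carrier := O
      zero_mem' := by simpa using hsmul 0 v hall
      add_mem' := fun {a b} ha hb => hadd a ha b hb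
      smul_mem' := fun c a ha => hsmul c a ha }
  have hbot : W ≠ ⊥ := fun h => hv ((Submodule.eq_bot_iff W).1 h v hall)
  have htop : W ≠ ⊤ := by
    intro h
    refine hH (CfsgLib.Classical.Linear.eq_top_of_transvection_mem fun i j hij a => ?_)
    have hi : (Pi.single i (1 : F) : V) ∈ W := h ▸ Submodule.mem_top
    obtain ⟨_, hmem⟩ := hi (Pi.single j a) (by simp [hij])
    convert hmem using 1
    exact Subtype.ext (CfsgLib.Classical.Linear.one_add_vecMulVec_single hij a).symm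
  have hle : H ≤ MulAction.stabilizer SLn W := by
    intro h hh
    rw [MulAction.mem_stabilizer_iff]
    refine le_antisymm ?_ fun w hw => ?_
    · intro w hw
      obtain ⟨w', hw', rfl⟩ := (Submodule.mem_smul_pointwise_iff_exists _ _ _).mp hw
      exact hmov h hh w' hw'
    · exact (Submodule.mem_smul_pointwise_iff_exists _ _ _).mpr
        ⟨h⁻¹ • w, hmov _ (H.inv_mem hh) w hw, smul_inv_smul h w⟩
  have h1 := card_points_le_index hn W hbot htop
  have h2 := Subgroup.index_antitone hle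
  omega

/-- The configuration where every centre carries a hyperplane of axes does not exist. -/
theorem false_of_hyperplane (hn : 3 ≤ n) (H : Subgroup SLn)
    (hB : ∀ v : V, v ≠ 0 → ∃ B : Submodule F V, (∀ φ, φ ∈ B ↔ InH H v φ) ∧ Module.finrank F B = n - 2) :
    False := by
  classical
  have kill : ∀ (v : V) (B : Submodule F V), (∀ φ, φ ∈ B ↔ InH H v φ) → ∀ φ ∈ B, φ ⬝ᵥ v = 0 :=
    fun v B h φ hφ => ((h φ).1 hφ).1
  choose B hBm hBd using hB
  have comm : ∀ x (hx : x ≠ 0) y (hy : y ≠ 0), ∀ φ ∈ B x hx, ∀ ψ ∈ B y hy, ψ ⬝ᵥ x = 0 → φ ⬝ᵥ y ≠ 0 →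
      ψ ∈ B x hx := by
    intro x hx y hy φ hφ ψ hψ hψx hφy
    obtain ⟨h1, hm1⟩ := (hBm x hx φ).1 hφ
    obtain ⟨h2, hm2⟩ := (hBm y hy ψ).1 hψ
    have h3 : ((φ ⬝ᵥ y) • ψ) ∈ B x hx := by
      refine (hBm x hx _).2 ⟨by rw [smul_dotProduct, hψx, smul_zero], ?_⟩
      have h4 := H.mul_mem (H.mul_mem (H.mul_mem hm1 hm2) (H.inv_mem hm1)) (H.inv_mem hm2)
      convert h4 using 1
      rw [eq_mul_inv_iff_mul_eq, conj_tv _ _ _ h2 (by rw [vecMul_dotProduct_mulVec]; exact h2)]
      apply Subtype.ext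
      have hinv : (((tv x φ h1)⁻¹ : SLn) : Matrix (Fin n) (Fin n) F) = 1 + vecMulVec x (-φ) := by
        have e : (tv x φ h1)⁻¹ = tv x (-φ) (by rw [neg_dotProduct, h1, neg_zero]) := by
          rw [inv_eq_iff_mul_eq_one, tv_mul]
          simp only [add_neg_cancel]
          exact tv_zero x
        rw [e]; rfl
      show (1 + vecMulVec x ((φ ⬝ᵥ y) • ψ)) * (1 + vecMulVec y ψ) =
        1 + vecMulVec ((1 + vecMulVec x φ) *ᵥ y) (ψ ᵥ* (((tv x φ h1)⁻¹ : SLn) : Matrix (Fin n) (Fin n) F))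
      rw [hinv, Matrix.vecMul_add, Matrix.vecMul_one, Matrix.vecMul_vecMulVec, hψx, zero_smul, add_zero,
        Matrix.add_mulVec, Matrix.one_mulVec, Matrix.vecMulVec_mulVec, op_smul_eq_smul, mul_add, mul_one, add_mul,
        one_mul, vecMulVec_mul_vecMulVec, smul_dotProduct, h2, smul_zero, zero_smul]
      simp [Matrix.add_vecMulVec, Matrix.smul_vecMulVec, Matrix.vecMulVec_smul]
      abel
    have h5 := (B x hx).smul_mem (φ ⬝ᵥ y)⁻¹ h3
    rwa [smul_smul, inv_mul_cancel₀ hφy, one_smul] at h5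
  have sym : ∀ x (hx : x ≠ 0) y (hy : y ≠ 0), ∀ φ ∈ B x hx, φ ⬝ᵥ y ≠ 0 → ∃ ψ ∈ B y hy, ψ ⬝ᵥ x ≠ 0 := by
    intro x hx y hy φ hφ hφy
    by_contra hcon
    push Not at hcon
    have hle : B y hy ≤ B x hx := fun ψ hψ => comm x hx y hy φ hφ ψ hψ (hcon ψ hψ) hφy
    have heq := Submodule.eq_of_le_of_finrank_eq hle (by rw [hBd, hBd])
    exact hφy (kill y _ (hBm y hy) φ (heq ▸ hφ))
  have same : ∀ x (hx : x ≠ 0) y (hy : y ≠ 0), LinearIndependent F ![x, y] →
      (∀ φ ∈ B x hx, φ ⬝ᵥ y = 0) → B x hx = B y hy := by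
    intro x hx y hy hind hxy
    have hyx : ∀ ψ ∈ B y hy, ψ ⬝ᵥ x = 0 := by
      intro ψ hψ
      by_contra hne
      obtain ⟨φ, hφ, hφy⟩ := sym y hy x hx ψ hψ hne
      exact hφy (hxy φ hφ)
    let S : Submodule F V := Submodule.span F (Set.range ![x, y])
    let A : Submodule F V := LinearMap.ker (Matrix.mulVecLin (Matrix.of ![x, y]))
    have hA : ∀ φ : V, φ ∈ A ↔ φ ⬝ᵥ x = 0 ∧ φ ⬝ᵥ y = 0 := by
      intro φ
      simp only [A, LinearMap.mem_ker, Matrix.mulVecLin_apply]
      constructor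
      · intro h
        exact ⟨by rw [dotProduct_comm]; exact congrFun h 0, by rw [dotProduct_comm]; exact congrFun h 1⟩
      · rintro ⟨h1, h2⟩
        funext i
        fin_cases i
        · show x ⬝ᵥ φ = 0
          rw [dotProduct_comm, h1]
        · show y ⬝ᵥ φ = 0
          rw [dotProduct_comm, h2]
    have hAd : Module.finrank F A + 2 = n := by
      have h := LinearMap.finrank_range_add_finrank_ker (Matrix.mulVecLin (Matrix.of ![x, y]))
      have hr : Module.finrank F (LinearMap.range (Matrix.mulVecLin (Matrix.of ![x, y]))) = 2 := by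
        have h2 : (Matrix.of ![x, y]).rank = Fintype.card (Fin 2) := hind.rank_matrix
        simpa [Matrix.rank] using h2
      rw [hr, Module.finrank_fin_fun] at h
      simp only [A]
      omega
    have e1 : B x hx = A := Submodule.eq_of_le_of_finrank_eq
      (fun φ hφ => (hA φ).2 ⟨kill x _ (hBm x hx) φ hφ, hxy φ hφ⟩) (by rw [hBd]; omega)
    have e2 : B y hy = A := Submodule.eq_of_le_of_finrank_eq
      (fun φ hφ => (hA φ).2 ⟨hyx φ hφ, kill y _ (hBm y hy) φ hφ⟩) (by rw [hBd]; omega)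
    rw [e1, e2]
  -- choose two centres with different axes
  obtain ⟨x, hx⟩ : ∃ x : V, x ≠ 0 := ⟨Pi.single ⟨0, by omega⟩ 1, by simp [Pi.single_eq_zero_iff]⟩
  obtain ⟨φ, hφ, hφ0⟩ := Submodule.exists_mem_ne_zero_of_ne_bot (p := B x hx) (by
    intro h
    have := hBd x hx
    rw [h, finrank_bot] at this
    omega)
  obtain ⟨y, hφy⟩ : ∃ y : V, φ ⬝ᵥ y ≠ 0 := by
    by_contra h
    push Not at h
    exact hφ0 (funext fun i => by simpa using h (Pi.single i 1))
  have hy : y ≠ 0 := fun h => hφy (by rw [h, dotProduct_zero])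
  obtain ⟨ψ, hψ, hψx⟩ := sym x hx y hy φ hφ hφy
  let ev : (B y hy) →ₗ[F] F := ((dotProductEquiv F (Fin n) x)).comp (B y hy).subtype
  have hker : (LinearMap.ker ev).map (B y hy).subtype ≤ B x hx ⊓ B y hy := by
    rintro _ ⟨⟨χ, hχ⟩, hχ0, rfl⟩
    refine ⟨comm x hx y hy φ hφ χ hχ ?_ hφy, hχ⟩
    rw [dotProduct_comm]; exact hχ0
  have hKlt : B x hx ⊔ B y hy < ⊤ := by
    rw [lt_top_iff_ne_top]
    intro htop
    have h1 := Submodule.finrank_sup_add_finrank_inf_eq (B x hx) (B y hy)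
    have h2 := Submodule.finrank_mono hker
    rw [Submodule.finrank_map_subtype_eq] at h2
    have h3 := LinearMap.finrank_range_add_finrank_ker ev
    have h4 : Module.finrank F (LinearMap.range ev) ≤ 1 :=
      (Submodule.finrank_le _).trans (le_of_eq (Module.finrank_self F))
    rw [htop, finrank_top, Module.finrank_fin_fun, hBd, hBd] at h1
    rw [hBd] at h3
    omega
  obtain ⟨f, hf0, hf⟩ := Submodule.exists_le_ker_of_lt_top _ hKlt
  set z := (dotProductEquiv F (Fin n)).symm f with hzdef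
  have hz : z ≠ 0 := by rw [hzdef, Ne, LinearEquiv.map_eq_zero_iff]; exact hf0
  have hzk : ∀ χ ∈ B x hx ⊔ B y hy, χ ⬝ᵥ z = 0 := fun χ hχ => by
    rw [dotProduct_comm]
    exact (LinearMap.congr_fun ((dotProductEquiv F (Fin n)).apply_symm_apply f) χ).trans (hf hχ)
  have hindx : LinearIndependent F ![x, z] := by
    refine (LinearIndependent.pair_iff' hx).2 fun a h => ?_
    rcases eq_or_ne a 0 with rfl | ha
    · exact hz (by rw [← h, zero_smul])
    · refine hψx ?_
      have h' := hzk ψ (Submodule.mem_sup_right hψ)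
      rw [← h, dotProduct_smul, smul_eq_zero] at h'
      exact h'.resolve_left ha
  have hindy : LinearIndependent F ![y, z] := by
    refine (LinearIndependent.pair_iff' hy).2 fun a h => ?_
    rcases eq_or_ne a 0 with rfl | ha
    · exact hz (by rw [← h, zero_smul])
    · refine hφy ?_
      have h' := hzk φ (Submodule.mem_sup_left hφ)
      rw [← h, dotProduct_smul, smul_eq_zero] at h'
      exact h'.resolve_left ha
  have e1 := same x hx z hz hindx fun χ hχ => hzk χ (Submodule.mem_sup_left hχ)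
  have e2 := same y hy z hz hindy fun χ hχ => hzk χ (Submodule.mem_sup_right hχ)
  exact hφy (kill y _ (hBm y hy) φ ((e1.trans e2.symm) ▸ hφ))

end CfsgLib.MinIndex
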