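import Mathlib
import Cfsg.Agent.MinIndex.Transvections
import Cfsg.Agent.MinIndex.Complement

/-!
The minimal index of a proper subgroup of `SL_n(q)` and `PSL_n(q)` for `n ≥ 3`.
-/

set_option autoImplicit false

open Matrix
open scoped LinearAlgebra.Projectivization

namespace CfsgLib.MinIndex

variable {F : Type*} [Field F] [Fintype F] {m : ℕ}

local notation "SLn" => Matrix.SpecialLinearGroup (Fin (m + 1)) F
local notation "SLm" => Matrix.SpecialLinearGroup (Fin m) F

/-- The matrix `[[1, φ], [0, D]]`. -/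
def blockMat (φ : Fin m → F) (D : Matrix (Fin m) (Fin m) F) : Matrix (Fin (m + 1)) (Fin (m + 1)) F :=
  Matrix.of (Fin.cons (Fin.cons 1 φ) (fun i => Fin.cons 0 (D i)))

theorem blockMat_det (φ : Fin m → F) (D : Matrix (Fin m) (Fin m) F) : (blockMat φ D).det = D.det := by
  rw [Matrix.det_succ_column_zero, Fin.sum_univ_succ]
  have h : (blockMat φ D).submatrix Fin.succ Fin.succ = D := by
    ext i j; simp [blockMat]
  rw [Finset.sum_eq_zero fun i _ => by simp [blockMat], add_zero, Fin.succAbove_zero, h]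
  simp [blockMat]

/-- `[[1, φ], [0, D]]` in `SL`. -/
def block (φ : Fin m → F) (D : SLm) : SLn :=
  ⟨blockMat φ (D : Matrix (Fin m) (Fin m) F), (blockMat_det _ _).trans D.2⟩

theorem block_mul (φ ψ : Fin m → F) (D E : SLm) :
    block φ D * block ψ E = block (ψ + φ ᵥ* (E : Matrix (Fin m) (Fin m) F)) (D * E) := by
  apply Subtype.ext
  show blockMat φ _ * blockMat ψ _ = blockMat _ ((D : Matrix (Fin m) (Fin m) F) * (E : Matrix (Fin m) (Fin m) F))
  ext i j
  refine Fin.cases ?_ (fun i => ?_) i <;> refine Fin.cases ?_ (fun j => ?_) j <;>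
    simp [blockMat, Matrix.mul_apply, Fin.sum_univ_succ, Matrix.vecMul, dotProduct]

theorem block_zero_one : block (0 : Fin m → F) (1 : SLm) = (1 : SLn) := by
  apply Subtype.ext
  show blockMat 0 (1 : Matrix (Fin m) (Fin m) F) = 1
  ext i j
  refine Fin.cases ?_ (fun i => ?_) i <;> refine Fin.cases ?_ (fun j => ?_) j <;>
    simp [blockMat, Matrix.one_apply, Fin.succ_ne_zero, (Fin.succ_ne_zero _).symm]

theorem cons_zero_dot (x : Fin m → F) :
    (Fin.cons 0 x : Fin (m + 1) → F) ⬝ᵥ Pi.single 0 1 = 0 := by simp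

theorem block_one_eq_tv (x : Fin m → F) :
    block x (1 : SLm) = tv (Pi.single 0 1) (Fin.cons 0 x) (cons_zero_dot x) := by
  apply Subtype.ext
  show blockMat x (1 : Matrix (Fin m) (Fin m) F) = 1 + vecMulVec (Pi.single 0 1) (Fin.cons 0 x)
  ext i j
  refine Fin.cases ?_ (fun i => ?_) i <;> refine Fin.cases ?_ (fun j => ?_) j <;>
    simp [blockMat, Matrix.vecMulVec_apply, Matrix.one_apply, Fin.succ_ne_zero, (Fin.succ_ne_zero _).symm]

/-- Minimal index in `SL`. -/
theorem card_points_le_index_sl (hm : 2 ≤ m) (hexc : ¬ (m = 3 ∧ Fintype.card F = 2)) (H : Subgroup SLn)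
    (hH : H ≠ ⊤) : Nat.card (ℙ F (Fin (m + 1) → F)) ≤ H.index := by
  classical
  by_contra hlt
  rw [not_le] at hlt
  haveI : Nontrivial (Fin (m + 1)) := Fin.nontrivial_iff_two_le.mpr (by omega)
  let e : Fin (m + 1) → F := Pi.single 0 1
  have he : e ≠ 0 := by simp [e, Pi.single_eq_zero_iff]
  let a : (Fin m → F) → SLn := fun x => block x 1
  have ha : ∀ x y, a x * a y = a (x + y) := fun x y => by
    simp only [a]
    rw [block_mul, mul_one, Matrix.SpecialLinearGroup.coe_one, Matrix.vecMul_one, add_comm y x]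
  let act : (Fin m → F) → SLn ⧸ H → SLn ⧸ H := fun x w => a x • w
  have h0 : ∀ w, act 0 w = w := fun w => by simp only [act, a]; rw [block_zero_one, one_smul]
  have hadd : ∀ x y w, act (x + y) w = act x (act y w) := fun x y w => by
    simp only [act]; rw [smul_smul, ha]
  -- reading off `InH` from stabilisers
  have hread : ∀ (g : SLn) (x : Fin m → F), act x (g : SLn ⧸ H) = g ↔
      InH H (((g⁻¹ : SLn) : Matrix (Fin (m + 1)) (Fin (m + 1)) F) *ᵥ e)
        ((Fin.cons 0 x : Fin (m + 1) → F) ᵥ* (g : Matrix (Fin (m + 1)) (Fin (m + 1)) F)) := by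
    intro g x
    have hd : ((Fin.cons 0 x : Fin (m + 1) → F) ᵥ* ((g⁻¹⁻¹ : SLn) : Matrix (Fin (m + 1)) (Fin (m + 1)) F)) ⬝ᵥ
        (((g⁻¹ : SLn) : Matrix (Fin (m + 1)) (Fin (m + 1)) F) *ᵥ e) = 0 := by
      rw [vecMul_dotProduct_mulVec]; exact cons_zero_dot x
    have hc : (a x * g)⁻¹ * g = (g⁻¹ * a x * g⁻¹⁻¹)⁻¹ := by group
    show ((a x * g : SLn) : SLn ⧸ H) = (g : SLn ⧸ H) ↔ _
    rw [QuotientGroup.eq, hc, H.inv_mem_iff]
    simp only [a]
    rw [block_one_eq_tv, conj_tv g⁻¹ e _ (cons_zero_dot x) hd]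
    simp only [inv_inv]
    exact ⟨fun h => ⟨by simpa using hd, h⟩, fun ⟨_, h⟩ => h⟩
  -- parametrising axes
  have hparam : ∀ (g : SLn) (φ : Fin (m + 1) → F),
      φ ⬝ᵥ (((g⁻¹ : SLn) : Matrix (Fin (m + 1)) (Fin (m + 1)) F) *ᵥ e) = 0 →
      ∃ x : Fin m → F, φ = (Fin.cons 0 x : Fin (m + 1) → F) ᵥ* (g : Matrix (Fin (m + 1)) (Fin (m + 1)) F) := by
    intro g φ h
    set ψ := φ ᵥ* ((g⁻¹ : SLn) : Matrix (Fin (m + 1)) (Fin (m + 1)) F) with hψdef
    rw [Matrix.dotProduct_mulVec, ← hψdef] at h
    refine ⟨fun i => ψ i.succ, ?_⟩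
    have hψ : (Fin.cons 0 (fun i => ψ i.succ) : Fin (m + 1) → F) = ψ := by
      funext i
      refine Fin.cases ?_ (fun i => ?_) i
      · simp only [Fin.cons_zero]
        rw [← h]
        simp [e]
      · simp
    rw [hψ, hψdef, Matrix.vecMul_vecMul, ← Matrix.SpecialLinearGroup.coe_mul, inv_mul_cancel,
      Matrix.SpecialLinearGroup.coe_one, Matrix.vecMul_one]
  have hfix : ∀ w, ∃ x, act x w ≠ w := by
    intro w
    induction w using QuotientGroup.induction_on with | _ g => ?_
    by_contra hcon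
    push Not at hcon
    refine not_forall_inH (by omega) H hH hlt (v := ((g⁻¹ : SLn) : Matrix (Fin (m + 1)) (Fin (m + 1)) F) *ᵥ e) ?_ ?_
    · intro h
      refine he ?_
      have h' := congrArg (fun u => (g : Matrix (Fin (m + 1)) (Fin (m + 1)) F) *ᵥ u) h
      simp only [Matrix.mulVec_zero] at h'
      rwa [Matrix.mulVec_mulVec, ← Matrix.SpecialLinearGroup.coe_mul, mul_inv_cancel,
        Matrix.SpecialLinearGroup.coe_one, Matrix.one_mulVec] at h'
    · intro φ hφ
      obtain ⟨x, rfl⟩ := hparam g φ hφ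
      exact (hread g x).1 (hcon x)
  have hsym : ∀ D : SLm, ∃ π : (SLn ⧸ H) ≃ (SLn ⧸ H),
      ∀ x w, π (act x w) = act ((D : Matrix (Fin m) (Fin m) F) *ᵥ x) (π w) := by
    intro D
    set E : SLm := (D.transpose)⁻¹ with hE
    refine ⟨MulAction.toPerm (block 0 E), fun x w => ?_⟩
    simp only [MulAction.toPerm_apply, act, smul_smul]
    congr 1
    simp only [a]
    rw [block_mul, block_mul, mul_one, one_mul, Matrix.SpecialLinearGroup.coe_one, Matrix.vecMul_one, add_zero,
      zero_add]
    congr 1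
    rw [← Matrix.vecMul_transpose, show ((D : Matrix (Fin m) (Fin m) F))ᵀ = ((D.transpose : SLm) : Matrix (Fin m) (Fin m) F) from rfl,
      Matrix.vecMul_vecMul, ← Matrix.SpecialLinearGroup.coe_mul, hE, mul_inv_cancel,
      Matrix.SpecialLinearGroup.coe_one, Matrix.vecMul_one]
  have hltΩ : Nat.card (SLn ⧸ H) < ∑ i ∈ Finset.range (m + 1), Fintype.card F ^ i := by
    rw [← CfsgLib.AutPSL.card_points]
    exact hlt
  have htrans : ∀ v : Fin (m + 1) → F, v ≠ 0 → ∃ g : SLn,
      ((g⁻¹ : SLn) : Matrix (Fin (m + 1)) (Fin (m + 1)) F) *ᵥ e = v := by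
    intro v hv
    obtain ⟨g, hg⟩ := CfsgLib.Classical.Linear.exists_sl_mulVec_eq he hv
    exact ⟨g⁻¹, by rw [inv_inv]; exact hg⟩
  rcases regular_or_hyperplane act h0 hadd hm hsym hfix hltΩ with ⟨hQ, hfree⟩ | hhyp
  · -- regular case: a complement of the radical
    have hnone : ∀ v φ, v ≠ 0 → InH H v φ → φ = 0 := by
      intro v φ hv h
      obtain ⟨g, rfl⟩ := htrans v hv
      obtain ⟨x, rfl⟩ := hparam g φ h.1
      rw [hfree _ x ((hread g x).2 h)]
      have : (Fin.cons 0 (0 : Fin m → F) : Fin (m + 1) → F) = 0 := by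
        funext i; refine Fin.cases ?_ (fun i => ?_) i <;> simp
      rw [this, Matrix.zero_vecMul]
    have hbij : Function.Bijective (fun x : Fin m → F => act x ((1 : SLn) : SLn ⧸ H)) := by
      refine (Nat.bijective_iff_injective_and_card _).2 ⟨fun x y h => ?_, by rw [hQ]; simp⟩
      simp only at h
      have h1 : act (-y + x) ((1 : SLn) : SLn ⧸ H) = ((1 : SLn) : SLn ⧸ H) := by
        rw [hadd, h, ← hadd, neg_add_cancel, h0]
      exact (neg_add_eq_zero.1 (hfree _ _ h1)).symm
    have hex : ∀ D : SLm, ∃ φ, block φ D ∈ H := by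
      intro D
      obtain ⟨x, hx⟩ := hbij.2 ((block 0 D : SLn) : SLn ⧸ H)
      have hx' : ((a x * 1 : SLn) : SLn ⧸ H) = ((block 0 D : SLn) : SLn ⧸ H) := hx
      rw [mul_one, QuotientGroup.eq] at hx'
      have hinv : (a x)⁻¹ = a (-x) := inv_eq_of_mul_eq_one_right (by rw [ha, add_neg_cancel]; exact block_zero_one)
      rw [hinv] at hx'
      simp only [a] at hx'
      rw [block_mul, one_mul] at hx'
      exact ⟨_, hx'⟩
    choose f hf using hex
    have huniq : ∀ (D : SLm) φ, block φ D ∈ H → φ = f D := by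
      intro D φ h
      have h2 : block (φ - f D) (1 : SLm) ∈ H := by
        have e1 : block (φ - f D) (1 : SLm) * block 0 (1 : SLm) = block (φ - f D) (1 : SLm) := by
          rw [block_zero_one, mul_one]
        have e2 : block ((φ - f D) ᵥ* ((D⁻¹ : SLm) : Matrix (Fin m) (Fin m) F)) (1 : SLm) * block (f D) D = block φ D := by
          rw [block_mul, one_mul, Matrix.vecMul_vecMul, ← Matrix.SpecialLinearGroup.coe_mul, inv_mul_cancel,
            Matrix.SpecialLinearGroup.coe_one, Matrix.vecMul_one, add_sub_cancel]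
        have h3 : block ((φ - f D) ᵥ* ((D⁻¹ : SLm) : Matrix (Fin m) (Fin m) F)) (1 : SLm) ∈ H := by
          have := H.mul_mem h (H.inv_mem (hf D))
          rwa [← e2, mul_inv_cancel_right] at this
        rw [block_one_eq_tv] at h3
        have h4 := hnone e _ he ⟨cons_zero_dot _, h3⟩
        have h5 : (φ - f D) ᵥ* ((D⁻¹ : SLm) : Matrix (Fin m) (Fin m) F) = 0 := funext fun i => by
          simpa using congrFun h4 i.succ
        have h6 := congrArg (· ᵥ* (D : Matrix (Fin m) (Fin m) F)) h5
        simp only [Matrix.vecMul_vecMul, ← Matrix.SpecialLinearGroup.coe_mul, inv_mul_cancel,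
          Matrix.SpecialLinearGroup.coe_one, Matrix.vecMul_one, Matrix.zero_vecMul] at h6
        rw [h6, block_zero_one]
        exact H.one_mem
      rw [block_one_eq_tv] at h2
      have h4 := hnone e _ he ⟨cons_zero_dot _, h2⟩
      funext i
      have h5 := congrFun h4 i.succ
      simp only [Fin.cons_succ, Pi.zero_apply, Pi.sub_apply, sub_eq_zero] at h5
      exact h5
    have hmul : ∀ A B : SLm, f (A * B) = f B + f A ᵥ* (B : Matrix (Fin m) (Fin m) F) := fun A B =>
      (huniq _ _ (by rw [← block_mul]; exact H.mul_mem (hf A) (hf B))).symm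
    have hnt : ∀ (D : SLm) (u b : Fin m → F), u ≠ 0 → b ≠ 0 →
        (D : Matrix (Fin m) (Fin m) F) = 1 + vecMulVec u b → ∀ c : F, f D ≠ c • b := by
      intro D u b hu hb hD c hc
      have hbu : b ⬝ᵥ u = 0 := by
        have h := D.2
        rw [hD, Matrix.vecMulVec_eq Unit, Matrix.det_one_add_replicateCol_mul_replicateRow] at h
        simpa using h
      have hv : (Fin.cons c u : Fin (m + 1) → F) ≠ 0 := fun h => hu (funext fun i => by
        simpa using congrFun h i.succ)
      have hd : (Fin.cons 0 b : Fin (m + 1) → F) ⬝ᵥ Fin.cons c u = 0 := by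
        simpa [dotProduct, Fin.sum_univ_succ] using hbu
      have h := hnone _ (Fin.cons 0 b) hv ⟨hd, by
        convert hf D using 1
        apply Subtype.ext
        show 1 + vecMulVec _ _ = blockMat (f D) _
        rw [hc, hD]
        ext i j
        refine Fin.cases ?_ (fun i => ?_) i <;> refine Fin.cases ?_ (fun j => ?_) j <;>
          simp [blockMat, Matrix.vecMulVec_apply, Matrix.one_apply, Fin.succ_ne_zero, (Fin.succ_ne_zero _).symm]⟩
      exact hb (funext fun i => by simpa using congrFun h i.succ)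
    rcases (show m = 2 ∨ m = 3 ∨ 4 ≤ m by omega) with rfl | rfl | h4
    · exact false_of_two f hmul hnt
    · refine false_of_three ?_ f hmul hnt
      by_contra hcon
      push Not at hcon
      refine hexc ⟨rfl, le_antisymm ?_ Fintype.one_lt_card⟩
      have : (Finset.univ : Finset F) ⊆ {0, 1} := fun t _ => by
        rcases eq_or_ne t 0 with h | h
        · simp [h]
        · simp [hcon t h]
      exact (Finset.card_le_card this).trans Finset.card_le_two
    · exact false_of_four_le f hmul hnt h4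
  · -- every centre carries a hyperplane of axes
    refine false_of_hyperplane (by omega) H fun v hv => ?_
    obtain ⟨g, rfl⟩ := htrans v hv
    obtain ⟨hsm, hcard⟩ := hhyp (g : SLn ⧸ H)
    let S : Submodule F (Fin m → F) :=
      { carrier := {x | act x (g : SLn ⧸ H) = g}
        zero_mem' := h0 _
        add_mem' := fun {x y} hx hy => by
          show act (x + y) _ = _
          rw [hadd, show act y (g : SLn ⧸ H) = g from hy, show act x (g : SLn ⧸ H) = g from hx]
        smul_mem' := fun c x hx => hsm c x hx }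
    let L : (Fin m → F) →ₗ[F] (Fin (m + 1) → F) :=
      { toFun := fun x => (Fin.cons 0 x : Fin (m + 1) → F) ᵥ* (g : Matrix (Fin (m + 1)) (Fin (m + 1)) F)
        map_add' := fun x y => by
          rw [← Matrix.add_vecMul]; congr 1
          funext i; refine Fin.cases ?_ (fun i => ?_) i <;> simp
        map_smul' := fun c x => by
          rw [RingHom.id_apply, ← Matrix.smul_vecMul]; congr 1
          funext i; refine Fin.cases ?_ (fun i => ?_) i <;> simp }
    have hL : Function.Injective L := fun x y h => by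
      have h' := congrArg (fun u => u ᵥ* ((g⁻¹ : SLn) : Matrix (Fin (m + 1)) (Fin (m + 1)) F)) h
      simp only [L, LinearMap.coe_mk, AddHom.coe_mk, Matrix.vecMul_vecMul, ← Matrix.SpecialLinearGroup.coe_mul,
        mul_inv_cancel, Matrix.SpecialLinearGroup.coe_one, Matrix.vecMul_one] at h'
      funext i
      simpa using congrFun h' i.succ
    refine ⟨S.map L, fun φ => ⟨?_, fun h => ?_⟩, ?_⟩
    · rintro ⟨x, hx, rfl⟩
      exact (hread g x).1 hx
    · obtain ⟨x, hx⟩ := hparam g φ h.1
      exact ⟨x, (hread g x).2 (hx ▸ h), hx.symm⟩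
    · rw [← (Submodule.equivMapOfInjective L hL S).finrank_eq]
      have h1 : Nat.card S = Fintype.card F ^ Module.finrank F S := by
        rw [Module.natCard_eq_pow_finrank (K := F), Nat.card_eq_fintype_card]
      change Fintype.card F * Nat.card S = _ at hcard
      rw [h1, ← pow_succ'] at hcard
      have h2 := Nat.pow_right_injective Fintype.one_lt_card hcard
      omega

/-- Minimal index in `PSL`. -/
theorem card_points_le_index_psl (n : ℕ) (hn : 3 ≤ n) (hexc : ¬ (n = 4 ∧ Fintype.card F = 2))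
    (H : Subgroup (Matrix.ProjectiveSpecialLinearGroup (Fin n) F)) (hH : H ≠ ⊤) :
    Nat.card (ℙ F (Fin n → F)) ≤ H.index := by
  obtain ⟨k, rfl⟩ : ∃ k, n = k + 1 := ⟨n - 1, by omega⟩
  rw [← Subgroup.index_comap_of_surjective H (QuotientGroup.mk'_surjective _)]
  refine card_points_le_index_sl (by omega) (fun h => hexc ⟨by omega, h.2⟩) _ fun h => hH ?_
  exact Subgroup.comap_injective (QuotientGroup.mk'_surjective _) (h.trans (Subgroup.comap_top _).symm)

end CfsgLib.MinIndex
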